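import Mathlib
import Cfsg.Agent.Lib.Sig.Basic

/-!
The transitivity theorem for solvable signalizer functors.
-/

set_option autoImplicit false
set_option maxHeartbeats 400000

namespace Cfsg.Lib.Sig

open Subgroup
open scoped Pointwise

variable {G : Type*} [Group G] [Finite G] {p : ℕ} [hp : Fact p.Prime] {A : Subgroup G}
  {θ : G → Subgroup G}

theorem inf_normalizer_gt {q : ℕ} [Fact q.Prime] {D Q : Subgroup G} (hQ : IsPGroup q Q)
    (hlt : D < Q) : D < normalizer (D : Set G) ⊓ Q := by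
  refine lt_of_le_of_ne (le_inf le_normalizer hlt.le) fun he => ?_
  have hne : D.subgroupOf Q ≠ ⊤ := fun h => hlt.not_ge (subgroupOf_eq_top.1 h)
  obtain ⟨x, hxN, hxD⟩ := SetLike.exists_of_lt
    (@Group.normalizerCondition_of_isNilpotent _ _ hQ.isNilpotent (D.subgroupOf Q)
      (lt_top_iff_ne_top.2 hne))
  refine hxD (show (x : G) ∈ D from ?_)
  rw [he]
  refine ⟨?_, x.2⟩
  show (x : G) ∈ normalizer (D : Set G)
  rw [← Cfsg.Lib.Solv.conj_smul_eq_self_iff] at hxN ⊢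
  have := Cfsg.Lib.Solv.map_conj_smul Q.subtype x (D.subgroupOf Q)
  rw [hxN, subgroupOf_map_subtype, inf_eq_left.2 hlt.le] at this
  exact this.symm

theorem exists_index_witness (hA : Cfsg.IsElementaryAbelian p A) {X D : Subgroup G}
    (hX : ¬ p ∣ Nat.card X) (hAX : A ≤ normalizer (X : Set G)) (h : ¬ X ≤ D) :
    ∃ B ≤ A, B.relIndex A ≤ p ∧ ¬ X ⊓ centralizer (B : Set G) ≤ D := by
  by_contra hcon
  push Not at hcon
  have hg := le_iSup_centralizer_index A X hA hX hAX ⊥ bot_le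
  rw [coe_bot, centralizer_eq_top_iff_subset.2 (by simp), inf_top_eq] at hg
  exact h (hg.trans (iSup_le fun B => hcon B B.2.1 B.2.2))

theorem inv_normalizer_inf {X D : Subgroup G} (hX : A ≤ normalizer (X : Set G))
    (hD : A ≤ normalizer (D : Set G)) :
    A ≤ normalizer ((normalizer (D : Set G) ⊓ X : Subgroup G) : Set G) := fun a ha => by
  rw [← Cfsg.Lib.Solv.conj_smul_eq_self_iff, Subgroup.smul_inf,
    Cfsg.Lib.Solv.conj_smul_eq_self_iff.2 (hX ha)]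
  congr 1
  exact Cfsg.Lib.Solv.conj_smul_eq_self_iff.2 (le_normalizer (hD ha))

theorem inv_inf {X Y : Subgroup G} (hX : A ≤ normalizer (X : Set G))
    (hY : A ≤ normalizer (Y : Set G)) : A ≤ normalizer ((X ⊓ Y : Subgroup G) : Set G) := fun a ha => by
  rw [← Cfsg.Lib.Solv.conj_smul_eq_self_iff, Subgroup.smul_inf,
    Cfsg.Lib.Solv.conj_smul_eq_self_iff.2 (hX ha), Cfsg.Lib.Solv.conj_smul_eq_self_iff.2 (hY ha)]

/-- Two incomparable invariant `p'`-subgroups of prime-power order grow in a common centralizer. -/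
theorem exists_common_element (hA : Cfsg.IsElementaryAbelian p A) (hA3 : p ^ 3 ≤ Nat.card A)
    {q : ℕ} [Fact q.Prime] {Q₁ Q₂ : Subgroup G} (h₁ : IsPGroup q Q₁) (h₂ : IsPGroup q Q₂)
    (hp₁ : ¬ p ∣ Nat.card Q₁) (hp₂ : ¬ p ∣ Nat.card Q₂)
    (hA₁ : A ≤ normalizer (Q₁ : Set G)) (hA₂ : A ≤ normalizer (Q₂ : Set G))
    (hD₁ : Q₁ ⊓ Q₂ ≠ Q₁) (hD₂ : Q₁ ⊓ Q₂ ≠ Q₂) :
    ∃ a ∈ A, a ≠ 1 ∧
      ¬ normalizer ((Q₁ ⊓ Q₂ : Subgroup G) : Set G) ⊓ Q₁ ⊓ centralizer {a} ≤ Q₁ ⊓ Q₂ ∧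
      ¬ normalizer ((Q₁ ⊓ Q₂ : Subgroup G) : Set G) ⊓ Q₂ ⊓ centralizer {a} ≤ Q₁ ⊓ Q₂ := by
  set D := Q₁ ⊓ Q₂ with hD
  have hAD := inv_inf hA₁ hA₂
  have key : ∀ Q : Subgroup G, IsPGroup q Q → ¬ p ∣ Nat.card Q → A ≤ normalizer (Q : Set G) →
      D < Q → ∃ B ≤ A, B.relIndex A ≤ p ∧ B.relIndex A ≠ 0 ∧
        ¬ normalizer (D : Set G) ⊓ Q ⊓ centralizer (B : Set G) ≤ D := by
    intro Q hQ hpQ hAQ hlt
    obtain ⟨B, hB, hi, hn⟩ := exists_index_witness hA (fun h => hpQ (h.trans (card_dvd_of_le inf_le_right)))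
      (inv_normalizer_inf hAQ hAD) (inf_normalizer_gt hQ hlt).not_ge
    exact ⟨B, hB, hi, index_ne_zero_of_finite, hn⟩
  obtain ⟨B₁, hB₁, hi₁, -, hn₁⟩ := key Q₁ h₁ hp₁ hA₁ (lt_of_le_of_ne inf_le_left hD₁)
  obtain ⟨B₂, hB₂, hi₂, -, hn₂⟩ := key Q₂ h₂ hp₂ hA₂ (lt_of_le_of_ne inf_le_right hD₂)
  have hne : B₁ ⊓ B₂ ≠ ⊥ := fun h => by
    have h1 : (B₁ ⊓ B₂).relIndex A = Nat.card A := by rw [h, relIndex_bot_left]
    have h2 : (B₁ ⊓ B₂).relIndex A ≤ B₁.relIndex A * B₂.relIndex A := relIndex_inf_le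
    have h3 : B₁.relIndex A * B₂.relIndex A ≤ p * p := Nat.mul_le_mul hi₁ hi₂
    have := hp.out.two_le
    nlinarith
  obtain ⟨a, ha, ha1⟩ : ∃ a ∈ B₁ ⊓ B₂, a ≠ (1 : G) := by
    by_contra hc
    push Not at hc
    exact hne ((eq_bot_iff_forall _).2 hc)
  have hc : ∀ B : Subgroup G, a ∈ B → centralizer (B : Set G) ≤ centralizer {a} := fun B hB z hz =>
    mem_centralizer_singleton_iff.2 (mem_centralizer_iff.1 hz a hB).symm
  exact ⟨a, hB₁ ha.1, ha1, fun h => hn₁ (le_trans (inf_le_inf_left _ (hc B₁ ha.1)) h),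
    fun h => hn₂ (le_trans (inf_le_inf_left _ (hc B₂ ha.2)) h)⟩

theorem family_conj (hθ : Cfsg.IsSolvableSignalizerFunctor p A θ) {U : Subgroup G}
    (hU : U ∈ Cfsg.signalizerFamily p A θ) {c : G} (hc : c ∈ Cfsg.signalizerInf A θ) :
    U.map (MulAut.conj c).toMonoidHom ∈ Cfsg.signalizerFamily p A θ := by
  have hcθ : ∀ a ∈ A, a ≠ 1 → c ∈ θ a := fun a ha ha1 => (mem_iInf.1 hc) ⟨a, ha, ha1⟩
  have hcA : c ∈ centralizer (A : Set G) := mem_centralizer_iff.2 fun a ha => by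
    by_cases ha1 : a = 1
    · simp [ha1]
    · exact (mem_centralizer_singleton_iff.1 (hθ.1.1 a ha ha1 (hcθ a ha ha1))).symm
  refine ⟨Cfsg.Lib.Solv.solvable_map _ hU.1, ?_, fun b hb u hu => ?_, fun a ha ha1 => ?_⟩
  · rw [card_map_of_injective (MulAut.conj c).injective]
    exact hU.2.1
  · obtain ⟨v, hv, rfl⟩ := hu
    refine ⟨b * v * b⁻¹, hU.2.2.1 b hb v hv, ?_⟩
    show c * (b * v * b⁻¹) * c⁻¹ = b * (c * v * c⁻¹) * b⁻¹
    have h : Commute b c := mem_centralizer_iff.1 hcA b hb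
    calc c * (b * v * b⁻¹) * c⁻¹ = (c * b) * v * (c * b)⁻¹ := by group
      _ = (b * c) * v * (b * c)⁻¹ := by rw [h.eq]
      _ = _ := by group
  · rintro _ ⟨⟨v, hv, rfl⟩, hva⟩
    have h : Commute a c := mem_centralizer_iff.1 hcA a ha
    have hva' : v ∈ centralizer ({a} : Set G) := by
      refine mem_centralizer_singleton_iff.2 ?_
      have h1 : Commute (c * v * c⁻¹) a := mem_centralizer_singleton_iff.1 hva
      have h2 := (h.symm.inv_left.mul_left h1).mul_left h.symm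
      simpa [Commute, SemiconjBy, mul_assoc] using h2
    exact mul_mem (mul_mem (hcθ a ha ha1) (hU.2.2.2 a ha ha1 ⟨hv, hva'⟩)) (inv_mem (hcθ a ha ha1))

theorem family_of_le {U V : Subgroup G} (hV : V ∈ Cfsg.signalizerFamily p A θ) (hUV : U ≤ V)
    (hUA : A ≤ normalizer (U : Set G)) : U ∈ Cfsg.signalizerFamily p A θ :=
  ⟨Cfsg.Lib.Solv.solvable_of_le hUV hV.1, fun h => hV.2.1 (h.trans (card_dvd_of_le hUV)),
    inv_iff.2 hUA, fun a ha ha1 => (inf_le_inf_right _ hUV).trans (hV.2.2.2 a ha ha1)⟩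

/-- A maximal `q`-member of the family above a given one. -/
theorem exists_max_qMember {q : ℕ} {U : Subgroup G} (hU : U ∈ Cfsg.signalizerFamily p A θ)
    (hUq : IsPGroup q U) :
    ∃ Q ∈ Cfsg.signalizerFamily p A θ, IsPGroup q Q ∧ U ≤ Q ∧
      ∀ R ∈ Cfsg.signalizerFamily p A θ, IsPGroup q R → Q ≤ R → R = Q := by
  obtain ⟨Q, ⟨hQ, hQq, hUQ⟩, hmax⟩ := (Set.toFinite {R : Subgroup G |
    R ∈ Cfsg.signalizerFamily p A θ ∧ IsPGroup q R ∧ U ≤ R}).exists_maximal ⟨U, hU, hUq, le_rfl⟩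
  exact ⟨Q, hQ, hQq, hUQ, fun R hR hRq hle => le_antisymm (hmax ⟨hR, hRq, hUQ.trans hle⟩ hle) hle⟩

theorem conj_trans {c d : G} {Q R S : Subgroup G} (h1 : Q.map (MulAut.conj c).toMonoidHom = R)
    (h2 : R.map (MulAut.conj d).toMonoidHom = S) : Q.map (MulAut.conj (d * c)).toMonoidHom = S := by
  rw [← h2, ← h1, ← Cfsg.Lib.Solv.conj_smul_eq_map, ← Cfsg.Lib.Solv.conj_smul_eq_map,
    ← Cfsg.Lib.Solv.conj_smul_eq_map, map_mul, mul_smul]

/-- **Transitivity Theorem.** -/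
theorem transitivity (hA : Cfsg.IsElementaryAbelian p A) (hA3 : p ^ 3 ≤ Nat.card A)
    (hθ : Cfsg.IsSolvableSignalizerFunctor p A θ) {q : ℕ} [Fact q.Prime] :
    ∀ Q₁ Q₂ : Subgroup G, Q₁ ∈ Cfsg.signalizerFamily p A θ → IsPGroup q Q₁ →
      (∀ R ∈ Cfsg.signalizerFamily p A θ, IsPGroup q R → Q₁ ≤ R → R = Q₁) →
      Q₂ ∈ Cfsg.signalizerFamily p A θ → IsPGroup q Q₂ →
      (∀ R ∈ Cfsg.signalizerFamily p A θ, IsPGroup q R → Q₂ ≤ R → R = Q₂) →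
      ∃ c ∈ Cfsg.signalizerInf A θ, Q₁.map (MulAut.conj c).toMonoidHom = Q₂ := by
  suffices H : ∀ D : Subgroup G, ∀ Q₁ Q₂ : Subgroup G, Q₁ ⊓ Q₂ = D →
      Q₁ ∈ Cfsg.signalizerFamily p A θ → IsPGroup q Q₁ →
      (∀ R ∈ Cfsg.signalizerFamily p A θ, IsPGroup q R → Q₁ ≤ R → R = Q₁) →
      Q₂ ∈ Cfsg.signalizerFamily p A θ → IsPGroup q Q₂ →
      (∀ R ∈ Cfsg.signalizerFamily p A θ, IsPGroup q R → Q₂ ≤ R → R = Q₂) →
      ∃ c ∈ Cfsg.signalizerInf A θ, Q₁.map (MulAut.conj c).toMonoidHom = Q₂ from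
    fun Q₁ Q₂ => H _ Q₁ Q₂ rfl
  intro D
  induction D using (wellFounded_gt (α := Subgroup G)).induction with
  | _ D ih =>
    intro Q₁ Q₂ hDeq hW₁ hq₁ hmax₁ hW₂ hq₂ hmax₂
    by_cases hc1 : Q₁ ⊓ Q₂ = Q₁
    · refine ⟨1, one_mem _, ?_⟩
      rw [← Cfsg.Lib.Solv.conj_smul_eq_map, map_one, one_smul]
      exact (hmax₁ Q₂ hW₂ hq₂ (inf_eq_left.1 hc1)).symm
    by_cases hc2 : Q₁ ⊓ Q₂ = Q₂
    · refine ⟨1, one_mem _, ?_⟩
      rw [← Cfsg.Lib.Solv.conj_smul_eq_map, map_one, one_smul]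
      exact hmax₂ Q₁ hW₁ hq₁ (inf_eq_right.1 hc2)
    have hA₁ := inv_iff.1 hW₁.2.2.1
    have hA₂ := inv_iff.1 hW₂.2.2.1
    obtain ⟨a, ha, ha1, hn₁, hn₂⟩ :=
      exists_common_element hA hA3 hq₁ hq₂ hW₁.2.1 hW₂.2.1 hA₁ hA₂ hc1 hc2
    rw [hDeq] at hn₁ hn₂
    have hAD : A ≤ normalizer (D : Set G) := hDeq ▸ inv_inf hA₁ hA₂
    have hDW : D ∈ Cfsg.signalizerFamily p A θ :=
      family_of_le hW₁ (hDeq ▸ inf_le_left) hAD
    have hDq : IsPGroup q D := hq₁.to_le (hDeq ▸ inf_le_left)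
    set M := normalizer (D : Set G) ⊓ θ a with hM
    have hθa := theta_mem hθ ha ha1
    have hAM : A ≤ normalizer (M : Set G) := inv_normalizer_inf (inv_iff.1 hθa.2.2.1) hAD
    have hMW : M ∈ Cfsg.signalizerFamily p A θ := family_of_le hθa inf_le_right hAM
    have hcopM := coprime_of_not_dvd hA hMW.2.1
    have hsol : Group.IsSolvable A ∨ Group.IsSolvable M := Or.inr hMW.1
    have hR : ∀ Q : Subgroup G, Q ∈ Cfsg.signalizerFamily p A θ → IsPGroup q Q →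
        ∃ S : Sylow q M, normalizer (D : Set G) ⊓ Q ⊓ centralizer {a} ≤
            (S : Subgroup M).map M.subtype ∧
          A ≤ normalizer (((S : Subgroup M).map M.subtype : Subgroup G) : Set G) := fun Q hQ hQq => by
      refine Cfsg.Lib.Solv.invariant_pgroup_le_sylow A M hAM hcopM hsol q _ ?_
        (hQq.to_le (inf_le_left.trans inf_le_right)) ?_
      · exact le_inf (inf_le_left.trans inf_le_left)
          ((inf_le_inf_right _ inf_le_right).trans (hQ.2.2.2 a ha ha1))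
      · exact inv_inf (inv_normalizer_inf (inv_iff.1 hQ.2.2.1) hAD) fun b hb => le_normalizer
          (mem_centralizer_singleton_iff.2 (mem_centralizer_iff.1 (le_centralizer_self hA ha) b hb))
    obtain ⟨S₁, hS₁, hS₁A⟩ := hR Q₁ hW₁ hq₁
    obtain ⟨S₂, hS₂, hS₂A⟩ := hR Q₂ hW₂ hq₂
    obtain ⟨c, hcA, hc⟩ := Cfsg.Lib.Solv.invariant_sylow_conj A M hAM hcopM hsol S₁ S₂ hS₁A hS₂A
    have hcinf : (c : G) ∈ Cfsg.signalizerInf A θ :=
      inf_centralizer_le_signalizerInf hMW le_rfl ⟨c.2, hcA⟩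
    have hcM : (c : G) ∈ normalizer (D : Set G) := c.2.1
    set S₁' := (S₁ : Subgroup M).map M.subtype with hS₁'
    set S₂' := (S₂ : Subgroup M).map M.subtype with hS₂'
    have hS₁W : S₁' ∈ Cfsg.signalizerFamily p A θ := family_of_le hMW (map_subtype_le _) hS₁A
    have hUn : S₁' ≤ normalizer (D : Set G) := (map_subtype_le _).trans inf_le_left
    have hUW := family_sup hA hDW hS₁W hUn
    have hUq : IsPGroup q ↥(D ⊔ S₁') :=
      IsPGroup.to_sup_of_normal_left' hDq (S₁.isPGroup'.map _) hUn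
    obtain ⟨Q₃, hW₃, hq₃, hU₃, hmax₃⟩ := exists_max_qMember hUW hUq
    have hlt1 : D < Q₁ ⊓ Q₃ := by
      refine lt_of_le_of_ne (le_inf (hDeq ▸ inf_le_left) (le_sup_left.trans hU₃)) fun he => hn₁ ?_
      refine le_trans ?_ he.ge
      exact le_inf (inf_le_left.trans inf_le_right) ((hS₁.trans le_sup_right).trans hU₃)
    obtain ⟨c₁, hc₁, e₁⟩ := ih _ hlt1 Q₁ Q₃ rfl hW₁ hq₁ hmax₁ hW₃ hq₃ hmax₃
    set Q₄ := Q₃.map (MulAut.conj (c : G)).toMonoidHom with hQ₄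
    have hW₄ : Q₄ ∈ Cfsg.signalizerFamily p A θ := family_conj hθ hW₃ hcinf
    have hq₄ : IsPGroup q Q₄ := hq₃.map _
    have hmax₄ : ∀ R ∈ Cfsg.signalizerFamily p A θ, IsPGroup q R → Q₄ ≤ R → R = Q₄ := by
      intro R hR hRq hle
      have h1 := hmax₃ _ (family_conj hθ hR (inv_mem hcinf)) (hRq.map _) (by
        refine le_trans ?_ (map_mono hle)
        rw [hQ₄, ← Cfsg.Lib.Solv.conj_smul_eq_map, ← Cfsg.Lib.Solv.conj_smul_eq_map, ← mul_smul,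
          ← map_mul, inv_mul_cancel, map_one, one_smul])
      rw [hQ₄, ← h1, ← Cfsg.Lib.Solv.conj_smul_eq_map, ← Cfsg.Lib.Solv.conj_smul_eq_map, ← mul_smul,
        ← map_mul, mul_inv_cancel, map_one, one_smul]
    have hlt2 : D < Q₂ ⊓ Q₄ := by
      have hD4 : D ≤ Q₄ := by
        rw [hQ₄, ← Cfsg.Lib.Solv.conj_smul_eq_map, ← Cfsg.Lib.Solv.conj_smul_eq_self_iff.2 hcM]
        exact Subgroup.pointwise_smul_le_pointwise_smul_iff.2 (le_sup_left.trans hU₃)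
      have hS24 : S₂' ≤ Q₄ := by
        have h1 : S₂' = MulAut.conj (c : G) • S₁' := by
          rw [hS₂', hS₁', ← hc]
          exact Cfsg.Lib.Solv.map_conj_smul M.subtype c _
        rw [h1, hQ₄, ← Cfsg.Lib.Solv.conj_smul_eq_map]
        exact Subgroup.pointwise_smul_le_pointwise_smul_iff.2 (le_sup_right.trans hU₃)
      refine lt_of_le_of_ne (le_inf (hDeq ▸ inf_le_right) hD4) fun he => hn₂ ?_
      refine le_trans ?_ he.ge
      exact le_inf (inf_le_left.trans inf_le_right) (hS₂.trans hS24)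
    obtain ⟨c₂, hc₂, e₂⟩ := ih _ hlt2 Q₂ Q₄ rfl hW₂ hq₂ hmax₂ hW₄ hq₄ hmax₄
    refine ⟨c₂⁻¹ * ((c : G) * c₁), mul_mem (inv_mem hc₂) (mul_mem hcinf hc₁), ?_⟩
    have e4 : Q₁.map (MulAut.conj ((c : G) * c₁)).toMonoidHom = Q₄ := conj_trans e₁ rfl
    refine conj_trans e4 ?_
    rw [← e₂, ← Cfsg.Lib.Solv.conj_smul_eq_map, ← Cfsg.Lib.Solv.conj_smul_eq_map, ← mul_smul,
      ← map_mul, inv_mul_cancel, map_one, one_smul]

theorem signalizerInf_mem (hθ : Cfsg.IsSolvableSignalizerFunctor p A θ) {B : Subgroup G}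
    (hB : B ≤ A) (hB1 : B ≠ ⊥) : Cfsg.signalizerInf B θ ∈ Cfsg.signalizerFamily p A θ := by
  obtain ⟨b, hb, hb1⟩ : ∃ b ∈ B, b ≠ (1 : G) := by
    by_contra hc
    push Not at hc
    exact hB1 ((eq_bot_iff_forall _).2 hc)
  have hle : Cfsg.signalizerInf B θ ≤ θ b := iInf_le_of_le ⟨b, hb, hb1⟩ le_rfl
  refine family_of_le (theta_mem hθ (hB hb) hb1) hle (inv_iff.1 fun x hx u hu => ?_)
  exact mem_iInf.2 fun c => hθ.1.2.2.1 c (hB c.2.1) c.2.2 x hx u (mem_iInf.1 hu c)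

/-- Every member meets some conjugate of a maximal `q`-member in a Sylow subgroup. -/
theorem exists_conj_sylow (hA : Cfsg.IsElementaryAbelian p A) (hA3 : p ^ 3 ≤ Nat.card A)
    (hθ : Cfsg.IsSolvableSignalizerFunctor p A θ) {q : ℕ} [Fact q.Prime] {Q : Subgroup G}
    (hQW : Q ∈ Cfsg.signalizerFamily p A θ) (hQq : IsPGroup q Q)
    (hQmax : ∀ R ∈ Cfsg.signalizerFamily p A θ, IsPGroup q R → Q ≤ R → R = Q)
    {H : Subgroup G} (hH : H ∈ Cfsg.signalizerFamily p A θ) :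
    ∃ c ∈ Cfsg.signalizerInf A θ, ∃ S : Sylow q ↥H,
      (S : Subgroup ↥H).map H.subtype = Q.map (MulAut.conj c).toMonoidHom ⊓ H := by
  obtain ⟨S, hS⟩ := Cfsg.Lib.Solv.exists_invariant_sylow A H (inv_iff.1 hH.2.2.1)
    (coprime_of_not_dvd hA hH.2.1) (Or.inr hH.1) q
  obtain ⟨Q', hW', hq', hle', hmax'⟩ :=
    exists_max_qMember (family_of_le hH (map_subtype_le _) hS) (S.isPGroup'.map _)
  obtain ⟨c, hc, e⟩ := transitivity hA hA3 hθ Q Q' hQW hQq hQmax hW' hq' hmax'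
  refine ⟨c, hc, S, ?_⟩
  rw [e]
  refine le_antisymm (le_inf hle' (map_subtype_le _)) fun x hx => ⟨⟨x, hx.2⟩, ?_, rfl⟩
  have h1 : (S : Subgroup ↥H) ≤ Q'.subgroupOf H := fun y hy => hle' (mem_map_of_mem _ hy)
  rw [← S.is_maximal' hq'.comap_subtype h1]
  exact hx.1

theorem sylow_signalizerInf (hA : Cfsg.IsElementaryAbelian p A) (hA3 : p ^ 3 ≤ Nat.card A)
    (hθ : Cfsg.IsSolvableSignalizerFunctor p A θ) {q : ℕ} [Fact q.Prime] {Q : Subgroup G}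
    (hQW : Q ∈ Cfsg.signalizerFamily p A θ) (hQq : IsPGroup q Q)
    (hQmax : ∀ R ∈ Cfsg.signalizerFamily p A θ, IsPGroup q R → Q ≤ R → R = Q)
    {B : Subgroup G} (hB : B ≤ A) (hB1 : B ≠ ⊥) :
    ∃ S : Sylow q ↥(Cfsg.signalizerInf B θ),
      (S : Subgroup ↥(Cfsg.signalizerInf B θ)).map (Cfsg.signalizerInf B θ).subtype =
        Q ⊓ centralizer (B : Set G) := by
  set T := Cfsg.signalizerInf B θ with hT
  obtain ⟨c, hc, S, hS⟩ := exists_conj_sylow hA hA3 hθ hQW hQq hQmax (signalizerInf_mem hθ hB hB1)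
  have hcT : c ∈ T := mem_iInf.2 fun b => (mem_iInf.1 hc) ⟨b, hB b.2.1, b.2.2⟩
  have hTC : T ≤ centralizer (B : Set G) := fun t ht => mem_centralizer_iff.2 fun b hb => by
    by_cases hb1 : b = 1
    · simp [hb1]
    · exact (mem_centralizer_singleton_iff.1
        (hθ.1.1 b (hB hb) hb1 (mem_iInf.1 ht ⟨b, hb, hb1⟩))).symm
  have hQT : Q ⊓ centralizer (B : Set G) = Q ⊓ T :=
    le_antisymm (le_inf inf_le_left (inf_centralizer_le_signalizerInf hQW hB))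
      (inf_le_inf_left _ hTC)
  let cT : ↥T := ⟨c, hcT⟩
  refine ⟨cT⁻¹ • S, ?_⟩
  rw [hQT, Sylow.coe_subgroup_smul, Cfsg.Lib.Solv.map_conj_smul, hS, Subgroup.smul_inf,
    ← Cfsg.Lib.Solv.conj_smul_eq_map, ← mul_smul, ← map_mul, coe_subtype, coe_inv, inv_mul_cancel,
    map_one, one_smul, Cfsg.Lib.Solv.conj_smul_eq_self_iff.2 (le_normalizer (inv_mem hcT))]

theorem complete_of_qGroups (hA : Cfsg.IsElementaryAbelian p A) (hA3 : p ^ 3 ≤ Nat.card A)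
    (hθ : Cfsg.IsSolvableSignalizerFunctor p A θ) {q : ℕ} [Fact q.Prime]
    (hq : ∀ a ∈ A, a ≠ 1 → IsPGroup q ↥(θ a)) : Cfsg.IsCompleteSignalizerFunctor p A θ := by
  have hA1 : A ≠ ⊥ := fun h => by
    rw [h, card_bot] at hA3
    have : 1 < p ^ 3 := Nat.one_lt_pow three_ne_zero hp.out.one_lt
    omega
  obtain ⟨a₀, ha₀, ha₀1⟩ : ∃ b ∈ A, b ≠ (1 : G) := by
    by_contra hc
    push Not at hc
    exact hA1 ((eq_bot_iff_forall _).2 hc)
  obtain ⟨Q, hQW, hQq, -, hQmax⟩ := exists_max_qMember (theta_mem hθ ha₀ ha₀1) (hq a₀ ha₀ ha₀1)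
  have hinf := signalizerInf_mem hθ le_rfl hA1
  obtain ⟨c, hc, S, hS⟩ := exists_conj_sylow hA hA3 hθ hQW hQq hQmax hinf
  have hinfq : IsPGroup q ↥(Cfsg.signalizerInf A θ) :=
    (hq a₀ ha₀ ha₀1).to_le (iInf_le_of_le ⟨a₀, ha₀, ha₀1⟩ le_rfl)
  have hStop : (S : Subgroup ↥(Cfsg.signalizerInf A θ)) = ⊤ :=
    (S.is_maximal' (Q := ⊤) (hinfq.of_equiv Subgroup.topEquiv.symm) le_top).symm
  rw [hStop, ← MonoidHom.range_eq_map, range_subtype] at hS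
  have hinfQ : Cfsg.signalizerInf A θ ≤ Q := fun x hx => by
    have h1 : c * x * c⁻¹ ∈ Cfsg.signalizerInf A θ := mul_mem (mul_mem hc hx) (inv_mem hc)
    rw [hS] at h1
    obtain ⟨y, hy, he⟩ := h1.1
    have : c * y * c⁻¹ = c * x * c⁻¹ := he
    rw [mul_left_inj, mul_right_inj] at this
    exact this ▸ hy
  refine ⟨hθ.1, Q, hQW.2.2.1, hQW.2.1, fun a ha ha1 => le_antisymm (hQW.2.2.2 a ha ha1)
    (le_inf ?_ (hθ.1.1 a ha ha1))⟩
  obtain ⟨Q', hW', hq', hle', hmax'⟩ := exists_max_qMember (theta_mem hθ ha ha1) (hq a ha ha1)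
  obtain ⟨d, hd, e⟩ := transitivity hA hA3 hθ Q Q' hQW hQq hQmax hW' hq' hmax'
  refine hle'.trans (le_of_eq ?_)
  rw [← e, ← Cfsg.Lib.Solv.conj_smul_eq_map,
    Cfsg.Lib.Solv.conj_smul_eq_self_iff.2 (le_normalizer (hinfQ hd))]

end Cfsg.Lib.Sig
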