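import Mathlib
import Cfsg.Prelude.Def_OddOrderLocal
import Cfsg.Prelude.Def_CaseTheorems
import Cfsg.Agent.Lib.Sig.Transitivity
import Cfsg.Agent.Lib.PLocal.InvariantCoprime
import Cfsg.Agent.Lib.Transfer.Action
import Cfsg.Agent.Lib.Transfer.NormalPComplement

/-!
Thompson's transitivity theorem when all `p`-locals are `p`-constrained.
-/

set_option autoImplicit false

open scoped Classical
open scoped Pointwise commutatorElement

namespace Cfsg.Lib.Sig

open Cfsg Subgroup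

variable {G : Type*} [Group G] [Finite G] {p : ℕ} [hp : Fact p.Prime] {E : Subgroup G}

theorem coprime_of_qGroup {q : ℕ} [hq : Fact q.Prime] (hqp : q ≠ p) {Q : Subgroup G}
    (h : IsPGroup q Q) : (Nat.card Q).Coprime p := by
  obtain ⟨n, hn⟩ := IsPGroup.iff_card.1 h
  rw [hn]
  exact ((Nat.coprime_primes hq.out hp.out).2 hqp).pow_left n

theorem mem_maxInv_iff {q : ℕ} [hq : Fact q.Prime] {Q : Subgroup G} :
    Q ∈ Cfsg.maxInvSubgroups ⊤ E {q} ↔ (IsPGroup q Q ∧ E ≤ normalizer (Q : Set G)) ∧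
      ∀ R : Subgroup G, IsPGroup q R → E ≤ normalizer (R : Set G) → Q ≤ R → R = Q := by
  have key : ∀ R : Subgroup G, R ∈ Cfsg.invSubgroups ⊤ E {q} ↔
      IsPGroup q R ∧ E ≤ normalizer (R : Set G) := by
    intro R
    constructor
    · rintro ⟨-, h, h'⟩
      refine ⟨IsPGroup.of_card (n := (Nat.card R).primeFactorsList.length) ?_, h'⟩
      exact Nat.eq_prime_pow_of_unique_prime_dvd Nat.card_pos.ne' fun {d} hd hdvd => h d hd hdvd
    · rintro ⟨h, h'⟩
      refine ⟨le_top, fun d hd hdvd => ?_, h'⟩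
      obtain ⟨n, hn⟩ := IsPGroup.iff_card.1 h
      rw [hn] at hdvd
      exact (Nat.prime_dvd_prime_iff_eq hd hq.out).1 (hd.dvd_of_dvd_pow hdvd)
  constructor
  · rintro ⟨h, hmax⟩
    exact ⟨(key Q).1 h, fun R h1 h2 => hmax R ((key R).2 ⟨h1, h2⟩)⟩
  · rintro ⟨h, hmax⟩
    exact ⟨(key Q).2 h, fun R hR => hmax R ((key R).1 hR).1 ((key R).1 hR).2⟩

/-- When `E` is a central Sylow subgroup of its centralizer, `O_{p'}` of the centralizer holds every
element of order coprime to `p`. -/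
theorem mem_core_centralizer (hEp : IsPGroup p E) (hEc : IsMulCommutative E)
    (hEfull : ∀ x ∈ centralizer (E : Set G), IsPGroup p (zpowers x) → x ∈ E) {x : G}
    (hx : x ∈ centralizer (E : Set G)) (hxp : (orderOf x).Coprime p) :
    x ∈ Cfsg.piCoreOf (Cfsg.primesNotDvd p) (centralizer (E : Set G)) := by
  set C := centralizer (E : Set G)
  have hEC : E ≤ C := fun e he => mem_centralizer_iff.2 fun d hd =>
    congrArg Subtype.val (hEc.is_comm.comm (⟨d, hd⟩ : E) ⟨e, he⟩)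
  obtain ⟨P⟩ : Nonempty (Sylow p C) := inferInstance
  have hPE : (P : Subgroup C) ≤ E.subgroupOf C := fun y hy => by
    refine hEfull _ y.2 fun z => ?_
    obtain ⟨k, hk⟩ := mem_zpowers_iff.1 z.2
    obtain ⟨n, hn⟩ := IsPGroup.iff_orderOf.1 (P.isPGroup'.to_le (zpowers_le.2 hy))
      ⟨y, mem_zpowers y⟩
    refine ⟨n, Subtype.ext ?_⟩
    have hy1 : (y : G) ^ p ^ n = 1 := by
      have h1 : y ^ p ^ n = 1 := by
        rw [orderOf_mk] at hn
        rw [← hn, pow_orderOf_eq_one]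
      exact congrArg Subtype.val h1
    show (z : G) ^ p ^ n = 1
    rw [← hk, ← zpow_natCast, ← zpow_mul, mul_comm, zpow_mul, zpow_natCast, show (C.subtype y) ^ p ^ n = 1 from hy1, one_zpow]
  have hcen : normalizer ((P : Subgroup C) : Set C) ≤ centralizer ((P : Subgroup C) : Set C) :=
    fun y _ => mem_centralizer_iff.2 fun u hu =>
      Subtype.ext (mem_centralizer_iff.1 y.2 _ (hPE hu))
  obtain ⟨P', N, hN, hNP⟩ :=
    Cfsg.Lib.Transfer.hasNormalPComplement_of_normalizer_le_centralizer P hcen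
  obtain ⟨hNc, k, hk⟩ := Cfsg.Lib.Transfer.coprime_card_of_isComplement' hNP
  have hxN : (⟨x, hx⟩ : C) ∈ N :=
    (Cfsg.Lib.Transfer.mem_iff_coprime_of_complement hNc hk _).2 (by rwa [orderOf_mk])
  refine ⟨⟨x, hx⟩, Cfsg.Lib.Solv.le_piCore hN (fun r hr hdvd => ?_) hxN, rfl⟩
  refine ⟨hr, fun hrp => ?_⟩
  rw [(Nat.prime_dvd_prime_iff_eq hr hp.out).1 hrp] at hdvd
  exact (hp.out.coprime_iff_not_dvd.1 hNc.symm) hdvd

/-- The transitivity theorem. -/
theorem transitivity_constrained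
    (hloc : ∀ T : Subgroup G, IsPGroup p T → T ≠ ⊥ →
      Cfsg.IsPConstrained p ↥(Subgroup.normalizer (T : Set G)))
    (h2 : p = 2 → ∀ S : Sylow p G,
      Group.IsNilpotent (S : Subgroup G) ∧ Group.nilpotencyClass (S : Subgroup G) ≤ 2)
    (hEp : IsPGroup p E) (hEc : IsMulCommutative E) (hE3 : ¬ Cfsg.PRankLE p 2 E)
    (hEfull : ∀ x ∈ centralizer (E : Set G), IsPGroup p (zpowers x) → x ∈ E)
    {q : ℕ} [hq : Fact q.Prime] (hqp : q ≠ p) :
    ∀ Q₁ ∈ Cfsg.maxInvSubgroups ⊤ E {q}, ∀ Q₂ ∈ Cfsg.maxInvSubgroups ⊤ E {q},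
      ∃ k ∈ Cfsg.piCoreOf (Cfsg.primesNotDvd p) (centralizer (E : Set G)),
        Q₂ = Q₁.map (MulAut.conj k).toMonoidHom := by
  obtain ⟨A, hAE, hA, hA3⟩ : ∃ A ≤ E, Cfsg.IsElementaryAbelian p A ∧ p ^ 3 ≤ Nat.card A := by
    unfold Cfsg.PRankLE at hE3
    push Not at hE3
    obtain ⟨A, hAc, hAexp, hAcard⟩ := hE3
    obtain ⟨n, hn⟩ := IsPGroup.iff_card.1 (hEp.to_subgroup A)
    refine ⟨A.map E.subtype, map_subtype_le _, ⟨⟨⟨fun a b => ?_⟩⟩, ?_⟩, ?_⟩
    · obtain ⟨_, a, ha, rfl⟩ := a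
      obtain ⟨_, b, hb, rfl⟩ := b
      refine Subtype.ext ?_
      show (a : G) * b = b * a
      exact congrArg (fun t : A => ((t : E) : G)) (hAc.is_comm.comm ⟨a, ha⟩ ⟨b, hb⟩)
    · rintro _ ⟨a, ha, rfl⟩
      exact congrArg Subtype.val (hAexp a ha)
    · rw [card_map_of_injective E.subtype_injective, hn]
      rw [hn] at hAcard
      exact Nat.pow_le_pow_right hp.out.pos ((Nat.pow_lt_pow_iff_right hp.out.one_lt).1 hAcard)
  have hEsol : Group.IsSolvable E := by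
    have := hEp.isNilpotent
    infer_instance
  have hEE : E ≤ centralizer (E : Set G) := fun e he => mem_centralizer_iff.2 fun d hd =>
    congrArg Subtype.val (hEc.is_comm.comm (⟨d, hd⟩ : E) ⟨e, he⟩)
  have hEa : ∀ a ∈ E, E ≤ centralizer ({a} : Set G) := fun a ha e he =>
    mem_centralizer_singleton_iff.2 (mem_centralizer_iff.1 (hEE he) a ha).symm
  have hcl : p = 2 → ∀ (H : Subgroup G) (T : Subgroup H), IsPGroup p T →
      ∀ a ∈ T, ∀ b ∈ T, ∀ c ∈ T, Commute (a * b * a⁻¹ * b⁻¹) c := by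
    intro hp2 H T hT a ha b hb c hc
    obtain ⟨S, hS⟩ := (hT.map H.subtype).exists_le_sylow
    obtain ⟨hnil, hcls⟩ := h2 hp2 S
    haveI := hnil
    have hbot : (⊤ : Subgroup (S : Subgroup G)).lowerCentralSeries 2 = ⊥ := by
      have h0 := Subgroup.lowerCentralSeries_nilpotencyClass (G := (S : Subgroup G))
      exact eq_bot_iff.2 (le_trans (Subgroup.lowerCentralSeries_antitone _ hcls) h0.le)
    have hmem : ∀ {u : H}, u ∈ T → (u : G) ∈ (S : Subgroup G) := fun hu => hS ⟨_, hu, rfl⟩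
    set a' : (S : Subgroup G) := ⟨a, hmem ha⟩
    set b' : (S : Subgroup G) := ⟨b, hmem hb⟩
    set c' : (S : Subgroup G) := ⟨c, hmem hc⟩
    have h1 : ⁅⁅a', b'⁆, c'⁆ ∈ (⊤ : Subgroup (S : Subgroup G)).lowerCentralSeries 2 := by
      rw [Subgroup.lowerCentralSeries_succ, Subgroup.lowerCentralSeries_succ,
        Subgroup.lowerCentralSeries_zero]
      exact commutator_mem_commutator (commutator_mem_commutator (mem_top _) (mem_top _)) (mem_top _)
    rw [hbot, mem_bot, commutatorElement_eq_one_iff_mul_comm] at h1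
    have h3 := congrArg Subtype.val h1
    simp only [commutatorElement_def, Subgroup.coe_mul, InvMemClass.coe_inv, a', b', c'] at h3
    exact Subtype.ext h3
  -- the signalizer at `a`
  let θ : G → Subgroup G := fun a => centralizer ({a} : Set G) ⊓
    (pPrimeCore p ↥(normalizer ((zpowers a : Subgroup G) : Set G))).map
      (normalizer ((zpowers a : Subgroup G) : Set G)).subtype
  have hEN : ∀ a ∈ E, E ≤ normalizer ((zpowers a : Subgroup G) : Set G) := fun a ha e he =>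
    Cfsg.Lib.Solv.normalizer_eq_of_centralizes (mem_centralizer_iff.2 fun y hy => by
      obtain ⟨i, rfl⟩ := mem_zpowers_iff.1 hy
      exact ((show Commute e a from mem_centralizer_singleton_iff.1 (hEa a ha he)).zpow_right i).eq.symm)
  have hθp : ∀ a, (Nat.card (θ a)).Coprime p := fun a => by
    refine Nat.Coprime.coprime_dvd_left (card_dvd_of_le inf_le_right) ?_
    rw [card_map_of_injective (subtype_injective _)]
    exact Cfsg.Lib.Solv.coprime_pPrimeCore p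
  have hθE : ∀ a ∈ E, E ≤ normalizer (θ a : Set G) := by
    intro a ha e he
    rw [← Cfsg.Lib.Solv.conj_smul_eq_self_iff, smul_inf]
    congr 1
    · exact Cfsg.Lib.Solv.conj_smul_eq_self_iff.2 (le_normalizer (hEa a ha he))
    · haveI := Cfsg.Lib.Transfer.pPrimeCore_normal (G := ↥(normalizer ((zpowers a : Subgroup G) : Set G))) p
      refine (Cfsg.Lib.Solv.map_conj_smul (normalizer ((zpowers a : Subgroup G) : Set G)).subtype
        ⟨e, hEN a ha he⟩ _).symm.trans ?_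
      congr 1
      exact Cfsg.Lib.Solv.conj_smul_eq_self_iff.2 (le_normalizer_of_normal (mem_top _))
  have hθmax : ∀ a ∈ A, a ≠ 1 → ∀ X : Subgroup G, (Nat.card X).Coprime p →
      E ≤ normalizer (X : Set G) → X ≤ centralizer ({a} : Set G) → X ≤ θ a := by
    intro a ha ha1 X hXp hEX hXa
    refine le_inf hXa ?_
    set H := normalizer ((zpowers a : Subgroup G) : Set G) with hH
    have hXH : X ≤ H := fun x hx => Cfsg.Lib.Solv.normalizer_eq_of_centralizes
      (mem_centralizer_iff.2 fun y hy => by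
        obtain ⟨i, rfl⟩ := mem_zpowers_iff.1 hy
        exact ((show Commute x a from mem_centralizer_singleton_iff.1 (hXa hx)).zpow_right i).eq.symm)
    have hEH : E ≤ H := hEN a (hAE ha)
    have hcore := Cfsg.Lib.PLocal.le_pPrimeCore_of_invariant (E := E.subgroupOf H)
      (Q := X.subgroupOf H)
      (hloc _ (hEp.to_le (zpowers_le.2 (hAE ha))) (by simpa using ha1))
      hEp.comap_subtype ?_ (fun hp2 => hcl hp2 H) ?_ ?_
    · intro x hx
      exact ⟨⟨x, hXH hx⟩, hcore hx, rfl⟩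
    · intro x hx hxp
      refine hEfull _ (mem_centralizer_iff.2 fun e he => congrArg Subtype.val
        (mem_centralizer_iff.1 hx ⟨e, hEH he⟩ he)) ?_
      have := hxp.map H.subtype
      rwa [MonoidHom.map_zpowers] at this
    · rwa [Nat.card_congr (subgroupOfEquivOfLe hXH).toEquiv]
    · intro e he
      refine mem_normalizer_iff.2 fun x => ?_
      exact mem_normalizer_iff.1 (hEX he) x
  -- members closed under conjugation by the centralizer
  have hconjE : ∀ c ∈ centralizer (E : Set G), ∀ X : Subgroup G, E ≤ normalizer (X : Set G) →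
      E ≤ normalizer ((MulAut.conj c • X : Subgroup G) : Set G) := by
    intro c hc X hX e he
    rw [← Cfsg.Lib.Solv.conj_smul_eq_self_iff, ← mul_smul, ← map_mul,
      mem_centralizer_iff.1 hc e he, map_mul, mul_smul, Cfsg.Lib.Solv.conj_smul_eq_self_iff.2 (hX he)]
  set K := Cfsg.piCoreOf (Cfsg.primesNotDvd p) (centralizer (E : Set G)) with hK
  have hKC : K ≤ centralizer (E : Set G) := map_subtype_le _
  let Max : Subgroup G → Prop := fun Q => (IsPGroup q Q ∧ E ≤ normalizer (Q : Set G)) ∧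
    ∀ R : Subgroup G, IsPGroup q R → E ≤ normalizer (R : Set G) → Q ≤ R → R = Q
  have hMaxconj : ∀ c ∈ centralizer (E : Set G), ∀ Q, Max Q → Max (MulAut.conj c • Q) := by
    rintro c hc Q ⟨⟨hQq, hQE⟩, hQmax⟩
    refine ⟨⟨hQq.of_equiv (Subgroup.equivSMul _ Q), hconjE c hc Q hQE⟩, fun R hRq hRE hle => ?_⟩
    rw [← hQmax (MulAut.conj c⁻¹ • R) (hRq.of_equiv (Subgroup.equivSMul _ R))
      (hconjE _ (inv_mem hc) R hRE) (by rw [map_inv]; exact Subgroup.pointwise_smul_subset_iff.1 hle)]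
    rw [← mul_smul, ← map_mul, mul_inv_cancel, map_one, one_smul]
  suffices H : ∀ D : Subgroup G, ∀ Q₁ Q₂ : Subgroup G, Q₁ ⊓ Q₂ = D → Max Q₁ → Max Q₂ →
      ∃ c ∈ K, MulAut.conj c • Q₁ = Q₂ by
    intro Q₁ h₁ Q₂ h₂
    obtain ⟨c, hc, hce⟩ := H _ Q₁ Q₂ rfl (mem_maxInv_iff.1 h₁) (mem_maxInv_iff.1 h₂)
    exact ⟨c, hc, by rw [← Cfsg.Lib.Solv.conj_smul_eq_map, hce]⟩
  intro D
  induction D using (wellFounded_gt (α := Subgroup G)).induction with
  | _ D ih =>
    intro Q₁ Q₂ hDeq hM₁ hM₂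
    obtain ⟨⟨hq₁, hE₁⟩, hmax₁⟩ := hM₁
    obtain ⟨⟨hq₂, hE₂⟩, hmax₂⟩ := hM₂
    by_cases hc1 : Q₁ ⊓ Q₂ = Q₁
    · exact ⟨1, one_mem _, by
        rw [map_one, one_smul]; exact (hmax₁ Q₂ hq₂ hE₂ (inf_eq_left.1 hc1)).symm⟩
    by_cases hc2 : Q₁ ⊓ Q₂ = Q₂
    · exact ⟨1, one_mem _, by
        rw [map_one, one_smul]; exact hmax₂ Q₁ hq₁ hE₁ (inf_eq_right.1 hc2)⟩
    have hnd : ∀ Q : Subgroup G, IsPGroup q Q → ¬ p ∣ Nat.card Q := fun Q h =>
      hp.out.coprime_iff_not_dvd.1 (coprime_of_qGroup hqp h).symm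
    obtain ⟨a, ha, ha1, hn₁, hn₂⟩ := exists_common_element hA hA3 hq₁ hq₂ (hnd _ hq₁) (hnd _ hq₂)
      (hAE.trans hE₁) (hAE.trans hE₂) hc1 hc2
    rw [hDeq] at hn₁ hn₂
    have hED : E ≤ normalizer (D : Set G) := hDeq ▸ inv_inf hE₁ hE₂
    have hDq : IsPGroup q D := hq₁.to_le (hDeq ▸ inf_le_left)
    set M := normalizer (D : Set G) ⊓ θ a with hM
    have hEM : E ≤ normalizer (M : Set G) := inv_normalizer_inf (hθE a (hAE ha)) hED
    have hMp : (Nat.card M).Coprime p := (hθp a).coprime_dvd_left (card_dvd_of_le inf_le_right)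
    have hcop : (Nat.card E).Coprime (Nat.card M) := by
      obtain ⟨n, hn⟩ := IsPGroup.iff_card.1 hEp
      rw [hn]
      exact (hMp.pow_right n).symm
    have hR : ∀ Q : Subgroup G, IsPGroup q Q → E ≤ normalizer (Q : Set G) →
        ∃ S : Sylow q M, normalizer (D : Set G) ⊓ Q ⊓ centralizer ({a} : Set G) ≤
            (S : Subgroup M).map M.subtype ∧
          E ≤ normalizer (((S : Subgroup M).map M.subtype : Subgroup G) : Set G) := fun Q hQ hQE => by
      set X := normalizer (D : Set G) ⊓ Q ⊓ centralizer ({a} : Set G) with hX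
      have hXE : E ≤ normalizer (X : Set G) :=
        inv_inf (inv_normalizer_inf hQE hED) fun e he => le_normalizer (hEa a (hAE ha) he)
      have hXq : IsPGroup q X := hQ.to_le (inf_le_left.trans inf_le_right)
      exact Cfsg.Lib.Solv.invariant_pgroup_le_sylow E M hEM hcop (Or.inl hEsol) q X
        (le_inf (inf_le_left.trans inf_le_left)
          (hθmax a ha ha1 X (coprime_of_qGroup hqp hXq) hXE inf_le_right)) hXq hXE
    obtain ⟨S₁, hS₁, hS₁E⟩ := hR Q₁ hq₁ hE₁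
    obtain ⟨S₂, hS₂, hS₂E⟩ := hR Q₂ hq₂ hE₂
    obtain ⟨c, hcE, hc⟩ :=
      Cfsg.Lib.Solv.invariant_sylow_conj E M hEM hcop (Or.inl hEsol) S₁ S₂ hS₁E hS₂E
    have hcK : (c : G) ∈ K := mem_core_centralizer hEp hEc hEfull hcE
      ((hMp.coprime_dvd_left (Subgroup.orderOf_dvd_natCard _ c.2)))
    have hcD : (c : G) ∈ normalizer (D : Set G) := c.2.1
    set S₁' := (S₁ : Subgroup M).map M.subtype with hS₁'
    set S₂' := (S₂ : Subgroup M).map M.subtype with hS₂'
    have hUn : S₁' ≤ normalizer (D : Set G) := (map_subtype_le _).trans inf_le_left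
    have hUq : IsPGroup q ↥(D ⊔ S₁') :=
      IsPGroup.to_sup_of_normal_left' hDq (S₁.isPGroup'.map _) hUn
    have hUE : E ≤ normalizer ((D ⊔ S₁' : Subgroup G) : Set G) := fun e he => by
      rw [← Cfsg.Lib.Solv.conj_smul_eq_self_iff, Subgroup.smul_sup,
        Cfsg.Lib.Solv.conj_smul_eq_self_iff.2 (hED he),
        Cfsg.Lib.Solv.conj_smul_eq_self_iff.2 (hS₁E he)]
    obtain ⟨Q₃, ⟨hq₃, hE₃, hU₃⟩, hmax₃⟩ := (Set.toFinite {R : Subgroup G |
      IsPGroup q R ∧ E ≤ normalizer (R : Set G) ∧ D ⊔ S₁' ≤ R}).exists_maximal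
      ⟨_, hUq, hUE, le_rfl⟩
    have hM₃ : Max Q₃ := ⟨⟨hq₃, hE₃⟩, fun R h1 h2 h3 =>
      le_antisymm (hmax₃ ⟨h1, h2, hU₃.trans h3⟩ h3) h3⟩
    have hlt1 : D < Q₁ ⊓ Q₃ := by
      refine lt_of_le_of_ne (le_inf (hDeq ▸ inf_le_left) (le_sup_left.trans hU₃)) fun he => hn₁ ?_
      refine le_trans ?_ he.ge
      exact le_inf (inf_le_left.trans inf_le_right) ((hS₁.trans le_sup_right).trans hU₃)
    obtain ⟨c₁, hc₁, e₁⟩ := ih _ hlt1 Q₁ Q₃ rfl ⟨⟨hq₁, hE₁⟩, hmax₁⟩ hM₃
    have hM₄ := hMaxconj _ (hKC hcK) _ hM₃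
    have hlt2 : D < Q₂ ⊓ MulAut.conj (c : G) • Q₃ := by
      have hD4 : D ≤ MulAut.conj (c : G) • Q₃ := by
        rw [← Cfsg.Lib.Solv.conj_smul_eq_self_iff.2 hcD]
        exact Subgroup.pointwise_smul_le_pointwise_smul_iff.2 (le_sup_left.trans hU₃)
      have hS24 : S₂' ≤ MulAut.conj (c : G) • Q₃ := by
        have h1 : S₂' = MulAut.conj (c : G) • S₁' := by
          rw [hS₂', hS₁', ← hc]
          exact Cfsg.Lib.Solv.map_conj_smul M.subtype c _
        rw [h1]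
        exact Subgroup.pointwise_smul_le_pointwise_smul_iff.2 (le_sup_right.trans hU₃)
      refine lt_of_le_of_ne (le_inf (hDeq ▸ inf_le_right) hD4) fun he => hn₂ ?_
      refine le_trans ?_ he.ge
      exact le_inf (inf_le_left.trans inf_le_right) (hS₂.trans hS24)
    obtain ⟨c₂, hc₂, e₂⟩ := ih _ hlt2 Q₂ _ rfl ⟨⟨hq₂, hE₂⟩, hmax₂⟩ hM₄
    refine ⟨c₂⁻¹ * ((c : G) * c₁), K.mul_mem (K.inv_mem hc₂) (K.mul_mem hcK hc₁), ?_⟩
    rw [map_mul, mul_smul, map_mul, mul_smul, e₁, ← e₂, ← mul_smul, ← map_mul, inv_mul_cancel,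
      map_one, one_smul]

end Cfsg.Lib.Sig
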