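import Mathlib
import Cfsg.Prelude.Def_EvenTechniques
import Cfsg.Agent.Lib.Sig.Basic
import Cfsg.Agent.Lib.Solv.Coprime
import Cfsg.Agent.Lib.Comp.LocalKBalance

/-!
The signalizer functor of a `k`-balanced group (solvable case).
-/

set_option autoImplicit false

namespace Cfsg.Lib.Sig.KBal

open Subgroup

variable {G : Type*} [Group G] [Finite G] {p : ℕ} [hp : Fact p.Prime] {A : Subgroup G}

/-- A group generated by `A`-invariant pieces `T E ≤ C(E)` which locally form a functor
is controlled by these pieces. -/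
theorem control (hA : Cfsg.IsElementaryAbelian p A) (𝓔 : Set (Subgroup G))
    (T : Subgroup G → Subgroup G) (h𝓔 : ∀ E ∈ 𝓔, E ≤ A)
    (hTA : ∀ E ∈ 𝓔, A ≤ normalizer (T E : Set G))
    (hpair : ∀ E ∈ 𝓔, ∀ E' ∈ 𝓔, ∃ N : Subgroup G, T E ≤ N ∧ T E' ≤ N ∧
      ∀ Y : Subgroup G, ¬ p ∣ Nat.card Y → A ≤ normalizer (Y : Set G) →
        A ≤ normalizer (N : Set G) ∧ N ⊓ Y ≤ ⨆ F : 𝓔, Y ⊓ T F)
    (hcross : ∀ E ∈ 𝓔, ∀ E' ∈ 𝓔, T E' ⊓ centralizer (E : Set G) ≤ T E)
    (X : Subgroup G) (hsolv : Group.IsSolvable X) (hX : ¬ p ∣ Nat.card X)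
    (hAX : A ≤ normalizer (X : Set G)) (hgen : X ≤ ⨆ F : 𝓔, X ⊓ T F) :
    ∀ E ∈ 𝓔, X ⊓ centralizer (E : Set G) ≤ T E := by
  classical
  induction hn : Nat.card X using Nat.strong_induction_on generalizing X with
  | _ n ih =>
    subst hn
    intro E0 hE0
    by_cases hX1 : X = ⊥
    · rw [hX1, bot_inf_eq]; exact bot_le
    haveI : Nontrivial X := (Subgroup.nontrivial_iff_ne_bot _).2 hX1
    haveI := hsolv
    set D : Subgroup G := ⁅X, X⁆ with hD
    have hDmap : (commutator X).map X.subtype = D := by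
      rw [_root_.commutator_def, map_commutator, ← MonoidHom.range_eq_map, range_subtype]
    have hDlt : D < X := by
      have h1 := (map_lt_map_iff_of_injective X.subtype_injective).2
        (Group.IsSolvable.commutator_lt_top_of_nontrivial (G := X))
      rwa [hDmap, ← MonoidHom.range_eq_map, range_subtype] at h1
    have hDX : D ≤ X := hDlt.le
    have hXD : X ≤ normalizer (D : Set G) := Cfsg.Lib.Solv.le_normalizer_commutator_left X X
    have hAD : A ≤ normalizer (D : Set G) := by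
      intro a ha
      rw [mem_normalizer_iff]
      have hmap : ∀ b ∈ A, D.map (MulAut.conj b).toMonoidHom ≤ D := by
        intro b hb
        rw [hD, map_commutator]
        refine commutator_mono ?_ ?_ <;>
        · rintro _ ⟨x, hx, rfl⟩
          exact (mem_normalizer_iff.1 (hAX hb) x).1 hx
      intro y
      refine ⟨fun hy => hmap a ha ⟨y, hy, rfl⟩, fun hy => ?_⟩
      have := hmap a⁻¹ (inv_mem ha) ⟨_, hy, rfl⟩
      simpa [mul_assoc] using this
    have hDp : ¬ p ∣ Nat.card D := fun h => hX (h.trans (card_dvd_of_le hDX))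
    set N0 : Subgroup G := ⨆ F : 𝓔, D ⊓ T F with hN0
    have hN0D : N0 ≤ D := iSup_le fun F => inf_le_left
    -- `N0` is normal in `X`
    have hconj : ∀ F : 𝓔, ∀ x ∈ X ⊓ T F, ∀ m ∈ N0, x * m * x⁻¹ ∈ N0 := by
      intro F x hx m hm
      refine Subgroup.iSup_induction _ (C := fun m => x * m * x⁻¹ ∈ N0) hm ?_ ?_ ?_
      · intro F' m hm
        obtain ⟨N, h1, h2, h3⟩ := hpair F F.2 F' F'.2
        refine (h3 D hDp hAD).2 ⟨N.mul_mem (N.mul_mem (h1 hx.2) (h2 hm.2)) (N.inv_mem (h1 hx.2)), ?_⟩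
        exact (mem_normalizer_iff.1 (hXD hx.1) m).1 hm.1
      · simp
      · intro u v h1 h2
        have : x * (u * v) * x⁻¹ = (x * u * x⁻¹) * (x * v * x⁻¹) := by group
        rw [this]; exact mul_mem h1 h2
    have hXN0 : X ≤ normalizer (N0 : Set G) := by
      refine hgen.trans (iSup_le fun F x hx => ?_)
      rw [mem_normalizer_iff]
      intro m
      refine ⟨hconj F x hx m, fun hm => ?_⟩
      have := hconj F x⁻¹ (inv_mem hx) _ hm
      simpa [mul_assoc] using this
    -- hence it contains the derived group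
    have hDN0 : D ≤ N0 := by
      haveI : (N0.subgroupOf X).Normal := normal_subgroupOf_of_le_normalizer hXN0
      let q := QuotientGroup.mk' (N0.subgroupOf X)
      let S : Set X := {x | ∃ F : 𝓔, (x : G) ∈ T F}
      have hS : closure S = ⊤ := by
        rw [eq_top_iff]
        rintro ⟨x, hx⟩ -
        have hle : X ≤ (closure S).map X.subtype := by
          refine hgen.trans (iSup_le fun F y hy => ?_)
          exact ⟨⟨y, hy.1⟩, subset_closure ⟨F, hy.2⟩, rfl⟩
        obtain ⟨z, hz, hzx⟩ := hle hx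
        have : z = ⟨x, hx⟩ := Subtype.ext hzx
        exact this ▸ hz
      have hcomm : ∀ u ∈ S, ∀ v ∈ S, Commute (q u) (q v) := by
        rintro u ⟨F, hu⟩ v ⟨F', hv⟩
        obtain ⟨N, h1, h2, h3⟩ := hpair F F.2 F' F'.2
        rw [← commutatorElement_eq_one_iff_commute, ← map_commutatorElement,
          QuotientGroup.mk'_apply, QuotientGroup.eq_one_iff, mem_subgroupOf]
        refine (h3 D hDp hAD).2 ⟨?_, ?_⟩
        · simp only [commutatorElement_def, coe_mul, coe_inv]
          exact N.mul_mem (N.mul_mem (N.mul_mem (h1 hu) (h2 hv)) (N.inv_mem (h1 hu))) (N.inv_mem (h2 hv))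
        · rw [hD]
          exact commutator_mem_commutator u.2 v.2
      have hall : ∀ u v : X, Commute (q u) (q v) := by
        intro u v
        have hu : u ∈ closure S := hS ▸ mem_top u
        induction hu using Subgroup.closure_induction with
        | mem u hu =>
          have hv : v ∈ closure S := hS ▸ mem_top v
          induction hv using Subgroup.closure_induction with
          | mem v hv => exact hcomm u hu v hv
          | one => simp [Commute.one_right]
          | mul a b _ _ h1 h2 => rw [map_mul]; exact h1.mul_right h2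
          | inv a _ h1 => rw [map_inv]; exact h1.inv_right
        | one => simp [Commute.one_left]
        | mul a b _ _ h1 h2 => rw [map_mul]; exact h1.mul_left h2
        | inv a _ h1 => rw [map_inv]; exact h1.inv_left
      rw [← hDmap, map_le_iff_le_comap, _root_.commutator_def, commutator_le]
      intro u _ v _
      have h := (commutatorElement_eq_one_iff_commute.2 (hall u v))
      rw [← map_commutatorElement, QuotientGroup.mk'_apply, QuotientGroup.eq_one_iff] at h
      exact h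
    have hDsolv : Group.IsSolvable D :=
      Group.isSolvable_of_isSolvable_injective (f := inclusion hDX) (inclusion_injective hDX)
    have hDcard : Nat.card D < Nat.card X :=
      Set.Finite.card_lt_card (Set.toFinite _) hDlt
    have hbase := ih _ hDcard D hDsolv hDp hAD hDN0 rfl E0 hE0
    -- add the generators one at a time
    let piece : 𝓔 → Subgroup G := fun F => X ⊓ T F
    have key : ∀ s : Finset 𝓔, D ⊔ s.sup piece ≤ X ∧
        (D ⊔ s.sup piece) ⊓ centralizer (E0 : Set G) ≤ T E0 := by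
      intro s
      induction s using Finset.induction_on with
      | empty => simpa using ⟨hDX, hbase⟩
      | insert F s hF ihs =>
        set H := D ⊔ s.sup piece with hH
        have heq : D ⊔ (insert F s).sup piece = H ⊔ piece F := by
          rw [Finset.sup_insert, hH, sup_assoc, sup_comm (piece F)]
        rw [heq]
        refine ⟨sup_le ihs.1 inf_le_left, ?_⟩
        have hXH : X ≤ normalizer (H : Set G) := by
          intro x hx
          rw [mem_normalizer_iff]
          have hc : ∀ x ∈ X, ∀ h ∈ H, x * h * x⁻¹ ∈ H := fun x hx h hh => by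
            have hcm : x * h * x⁻¹ * h⁻¹ ∈ H :=
              le_sup_left (a := D) (commutator_mem_commutator hx (ihs.1 hh))
            simpa using mul_mem hcm hh
          intro h
          refine ⟨hc x hx h, fun hh => ?_⟩
          have := hc x⁻¹ (inv_mem hx) _ hh
          simpa [mul_assoc] using this
        have hFA : A ≤ normalizer ((piece F : Subgroup G) : Set G) :=
          (le_inf hAX (hTA F F.2)).trans (fun a ha => by
            rw [mem_normalizer_iff]
            intro y
            exact ⟨fun hy => ⟨(mem_normalizer_iff.1 ha.1 y).1 hy.1,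
              (mem_normalizer_iff.1 ha.2 y).1 hy.2⟩, fun hy => ⟨(mem_normalizer_iff.1 ha.1 y).2 hy.1,
              (mem_normalizer_iff.1 ha.2 y).2 hy.2⟩⟩)
        rintro y ⟨hy, hyc⟩
        have hy' : y ∈ ((H ⊔ piece F : Subgroup G) : Set G) := hy
        rw [coe_mul_of_right_le_normalizer_left H (piece F) (inf_le_left.trans hXH)] at hy'
        obtain ⟨h, hh, t, ht, rfl⟩ := hy'
        have hpn : piece F ≤ normalizer ((H ⊓ piece F : Subgroup G) : Set G) := by
          intro u hu
          rw [mem_normalizer_iff]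
          intro w
          have h1 := mem_normalizer_iff.1 (hXH hu.1) w
          have h2 := mem_normalizer_iff.1 (le_normalizer hu : u ∈ normalizer (piece F : Set G)) w
          exact ⟨fun hw => ⟨h1.1 hw.1, h2.1 hw.2⟩, fun hw => ⟨h1.2 hw.1, h2.2 hw.2⟩⟩
        have hEA := h𝓔 E0 hE0
        have hEH : ∀ e ∈ E0, ∀ w ∈ H, e * w * e⁻¹ ∈ H := by
          intro e he w hw
          have hle : H.map (MulAut.conj e).toMonoidHom ≤ H := by
            rw [hH, Subgroup.map_sup]
            refine sup_le_sup ?_ ?_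
            · rintro _ ⟨d, hd, rfl⟩; exact (mem_normalizer_iff.1 (hAD (hEA he)) d).1 hd
            · rw [map_le_iff_le_comap]
              refine Finset.sup_le fun F' hF' => ?_
              intro d hd
              refine Finset.le_sup (f := piece) hF' ⟨?_, ?_⟩
              · exact (mem_normalizer_iff.1 (hAX (hEA he)) d).1 hd.1
              · exact (mem_normalizer_iff.1 (hTA F' F'.2 (hEA he)) d).1 hd.2
          exact hle ⟨w, hw, rfl⟩
        have hEN : E0 ≤ normalizer ((H ⊓ piece F : Subgroup G) : Set G) := by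
          intro e he
          rw [mem_normalizer_iff]
          intro w
          have h2 := mem_normalizer_iff.1 (hFA (hEA he)) w
          refine ⟨fun hw => ⟨hEH e he w hw.1, h2.1 hw.2⟩, fun hw => ⟨?_, h2.2 hw.2⟩⟩
          have := hEH e⁻¹ (inv_mem he) _ hw.1
          simpa [mul_assoc] using this
        obtain ⟨c, hc, htc⟩ := Cfsg.Lib.Solv.fixed_coset E0 (piece F) (hEA.trans hFA)
          (coprime_of_not_dvd (elem_mono hA hEA)
            (fun hd => hX (hd.trans (card_dvd_of_le inf_le_left))))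
          (Or.inr (Group.isSolvable_of_isSolvable_injective (f := inclusion (inf_le_left : piece F ≤ X))
            (inclusion_injective _)))
          (H ⊓ piece F) inf_le_right hpn hEN t ht (fun e he => by
            have hefix : e * (h * t) = h * t * e := mem_centralizer_iff.1 hyc e he
            have e1 : e * t * e⁻¹ * t⁻¹ = (e * h * e⁻¹)⁻¹ * h := by
              have h3 : e * h * e⁻¹ * (e * t * e⁻¹) = h * t := by
                calc e * h * e⁻¹ * (e * t * e⁻¹) = e * (h * t) * e⁻¹ := by group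
                  _ = h * t := by rw [hefix]; group
              calc e * t * e⁻¹ * t⁻¹
                  = (e * h * e⁻¹)⁻¹ * (e * h * e⁻¹ * (e * t * e⁻¹)) * t⁻¹ := by group
                _ = (e * h * e⁻¹)⁻¹ * h := by rw [h3]; group
            refine ⟨?_, ?_⟩
            · show e * t * e⁻¹ * t⁻¹ ∈ H
              rw [e1]; exact mul_mem (inv_mem (hEH e he h hh)) hh
            · exact (piece F).mul_mem ((mem_normalizer_iff.1 (hFA (hEA he)) t).1 ht) ((piece F).inv_mem ht))
        obtain ⟨hcP, hcE⟩ := mem_inf.1 hc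
        have hcT : c ∈ T E0 := hcross E0 hE0 F F.2 ⟨hcP.2, hcE⟩
        have hyc' : h * t * c⁻¹ ∈ H := by
          have e2 : h * t * c⁻¹ = h * (t * (t⁻¹ * c)⁻¹ * t⁻¹) := by group
          rw [e2]
          exact mul_mem hh ((mem_normalizer_iff.1 (hpn ht) _).1 (inv_mem htc)).1
        have := ihs.2 ⟨hyc', (centralizer (E0 : Set G)).mul_mem hyc ((centralizer (E0 : Set G)).inv_mem hcE)⟩
        simpa using mul_mem this hcT
    haveI := Fintype.ofFinite 𝓔
    refine le_trans (inf_le_inf_right _ ?_) (key Finset.univ).2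
    exact hgen.trans ((iSup_le fun F => Finset.le_sup (f := piece) (Finset.mem_univ F)).trans
      le_sup_right)

theorem centralizer_le_normalizer_core (d : G) :
    centralizer ({d} : Set G) ≤ normalizer (Cfsg.centralizerPPrimeCore p d : Set G) := by
  intro g hg
  rw [mem_normalizer_iff]
  intro y
  refine ⟨fun hy => Cfsg.Lib.Comp.KBalance.centralizerPPrimeCore_conj_mem d hg hy, fun hy => ?_⟩
  have := Cfsg.Lib.Comp.KBalance.centralizerPPrimeCore_conj_mem d (inv_mem hg) hy
  simpa [mul_assoc] using this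

theorem normalizer_delta (hA : Cfsg.IsElementaryAbelian p A) {B : Subgroup G} (hB : B ≤ A) :
    A ≤ normalizer (Cfsg.signalizerDelta p B : Set G) := by
  refine inv_iff.1 fun a ha y hy => ?_
  simp only [Cfsg.signalizerDelta, mem_iInf] at hy ⊢
  intro b
  refine Cfsg.Lib.Comp.KBalance.centralizerPPrimeCore_conj_mem _ ?_ (hy b)
  rw [mem_centralizer_singleton_iff]
  exact (mem_centralizer_iff.1 (le_centralizer_self hA ha) b (hB b.2.1)).symm

theorem normalizer_inf_centralizer (hA : Cfsg.IsElementaryAbelian p A) {Y : Subgroup G}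
    (hY : A ≤ normalizer (Y : Set G)) {s : Set G} (hs : s ⊆ A) :
    A ≤ normalizer ((Y ⊓ centralizer s : Subgroup G) : Set G) := by
  refine inv_iff.1 fun a ha y hy => ⟨(mem_normalizer_iff.1 (hY ha) y).1 hy.1, ?_⟩
  refine mem_centralizer_iff.2 fun b hb => ?_
  have h1 : b * a = a * b := mem_centralizer_iff.1 (le_centralizer_self hA ha) b (hs hb)
  have h2 : b * a⁻¹ = a⁻¹ * b :=
    mem_centralizer_iff.1 (le_centralizer_self hA (inv_mem ha)) b (hs hb)
  have h3 : b * y = y * b := mem_centralizer_iff.1 hy.2 b hb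
  calc b * (a * y * a⁻¹) = b * a * y * a⁻¹ := by group
    _ = a * (b * y) * a⁻¹ := by rw [h1]; group
    _ = a * y * (b * a⁻¹) := by rw [h3]; group
    _ = a * y * a⁻¹ * b := by rw [h2]; group

theorem mem_delta {B : Subgroup G} {y : G} :
    y ∈ Cfsg.signalizerDelta p B ↔ ∀ d ∈ B, d ≠ 1 → y ∈ Cfsg.centralizerPPrimeCore p d := by
  unfold Cfsg.signalizerDelta
  rw [mem_iInf]
  exact ⟨fun h d hd hd1 => h ⟨d, hd, hd1⟩, fun h d => h d d.2.1 d.2.2⟩

theorem delta_antitone {B F : Subgroup G} (hBF : B ≤ F) {y : G}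
    (hy : y ∈ Cfsg.signalizerDelta p F) : y ∈ Cfsg.signalizerDelta p B :=
  mem_delta.2 fun d hd hd1 => mem_delta.1 hy d (hBF hd) hd1

theorem core_not_dvd (d : G) : ¬ p ∣ Nat.card (Cfsg.centralizerPPrimeCore p d) := fun h =>
  hp.out.ne_one (Nat.eq_one_of_dvd_coprimes (Cfsg.Lib.Comp.KBalance.card_centralizerPPrimeCore d) h dvd_rfl)

/-- The functor of a `k`-balanced elementary abelian group, solvable case. -/
theorem isSignalizerFunctor (hA : Cfsg.IsElementaryAbelian p A) (k : ℕ) (hk : 1 ≤ k)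
    (hAk : p ^ (k + 2) ≤ Nat.card A)
    (hbal : ∀ B : Subgroup G, B ≤ A → Nat.card B = p ^ k → ∀ d ∈ A, d ≠ 1 →
      Cfsg.signalizerDelta p B ⊓ centralizer {d} ≤ Cfsg.centralizerPPrimeCore p d)
    (hsolv : ∀ a ∈ A, a ≠ 1 → Group.IsSolvable (Cfsg.centralizerPPrimeCore p a)) :
    Cfsg.IsSignalizerFunctor p A (fun a => ⨆ D : {D : Subgroup G // D ≤ A ∧ Nat.card D = p ^ k},
      Cfsg.signalizerDelta p (D : Subgroup G) ⊓ centralizer {a}) := by
  set θ : G → Subgroup G := fun a => ⨆ D : {D : Subgroup G // D ≤ A ∧ Nat.card D = p ^ k},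
      Cfsg.signalizerDelta p (D : Subgroup G) ⊓ centralizer {a} with hθ
  have hθC : ∀ a, θ a ≤ centralizer {a} := fun a => iSup_le fun D => inf_le_right
  have hθcore : ∀ a ∈ A, a ≠ 1 → θ a ≤ Cfsg.centralizerPPrimeCore p a := fun a ha ha1 =>
    iSup_le fun D => hbal D D.2.1 D.2.2 a ha ha1
  have hθp : ∀ a ∈ A, a ≠ 1 → ¬ p ∣ Nat.card (θ a) := fun a ha ha1 h =>
    core_not_dvd a (h.trans (card_dvd_of_le (hθcore a ha ha1)))
  have hθA : ∀ a ∈ A, A ≤ normalizer (θ a : Set G) := by
    intro a ha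
    refine inv_iff.1 fun b hb y hy => ?_
    have hle : (θ a).map (MulAut.conj b).toMonoidHom ≤ θ a := by
      rw [hθ, Subgroup.map_iSup]
      refine iSup_mono fun D => ?_
      rintro _ ⟨z, hz, rfl⟩
      exact inv_iff.2 (normalizer_inf_centralizer hA (normalizer_delta hA D.2.1)
        (s := {a}) (by simpa using ha)) b hb z hz
    exact hle ⟨y, hy, rfl⟩
  refine ⟨fun a _ _ => hθC a, hθp, fun a ha _ b hb x hx => inv_iff.2 (hθA a ha) b hb x hx, ?_⟩
  intro a ha ha1 b hb hb1
  -- the subgroups of small index through `a`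
  set 𝓔 : Set (Subgroup G) := {E | E ≤ A ∧ a ∈ E ∧ E.relIndex A ≤ p} with h𝓔
  let T : Subgroup G → Subgroup G := fun E => Cfsg.signalizerDelta p E ⊓ centralizer (E : Set G)
  have hcard : ∀ {E : Subgroup G}, E ≤ A → E.relIndex A ≤ p → p ^ (k + 1) ≤ Nat.card E := by
    intro E hEA hi
    have h1 := relIndex_mul_relIndex ⊥ E A bot_le hEA
    rw [relIndex_bot_left, relIndex_bot_left] at h1
    refine Nat.le_of_mul_le_mul_right ?_ hp.out.pos
    calc p ^ (k + 1) * p = p ^ (k + 2) := by ring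
      _ ≤ Nat.card A := hAk
      _ = Nat.card E * E.relIndex A := h1.symm
      _ ≤ Nat.card E * p := Nat.mul_le_mul_left _ hi
  have hsub : ∀ {F : Subgroup G}, F ≤ A → p ^ k ≤ Nat.card F →
      ∃ B : Subgroup G, B ≤ F ∧ Nat.card B = p ^ k := by
    intro F hFA hF
    obtain ⟨B, hB, hBc⟩ := Sylow.exists_subgroup_le_card_pow_prime_of_le_card hp.out
      (isPGroup_of_elem (elem_mono hA hFA)) (H := (⊤ : Subgroup F)) (by rwa [card_top])
    exact ⟨B.map F.subtype, map_subtype_le B,
      by rw [card_map_of_injective F.subtype_injective]; exact hBc⟩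
  have hdelta : ∀ {F E : Subgroup G}, F ≤ A → p ^ k ≤ Nat.card F → E ≤ A →
      Cfsg.signalizerDelta p F ⊓ centralizer (E : Set G) ≤ Cfsg.signalizerDelta p E := by
    intro F E hFA hF hEA y hy
    obtain ⟨B, hBF, hBc⟩ := hsub hFA hF
    have hyB : y ∈ Cfsg.signalizerDelta p B := delta_antitone hBF hy.1
    refine mem_delta.2 fun d hd hd1 => ?_
    exact hbal B (hBF.trans hFA) hBc d (hEA hd) hd1
      ⟨hyB, centralizer_le (Set.singleton_subset_iff.2 hd) hy.2⟩
  have hTtheta : ∀ {E : Subgroup G}, E ≤ A → p ^ k ≤ Nat.card E → ∀ c ∈ E, T E ≤ θ c := by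
    intro E hEA hE c hc
    obtain ⟨B, hBE, hBc⟩ := hsub hEA hE
    refine le_iSup_of_le ⟨B, hBE.trans hEA, hBc⟩ (le_inf ?_ ?_)
    · intro y hy
      exact delta_antitone hBE hy.1
    · exact inf_le_right.trans (centralizer_le (Set.singleton_subset_iff.2 hc))
  have hpow : ∀ {n : ℕ}, p ^ (k + 1) ≤ n → p ^ k ≤ n := fun h =>
    (Nat.pow_le_pow_right hp.out.pos (Nat.le_succ k)).trans h
  -- generation by `T`
  have hgenT : ∀ (F Y : Subgroup G), F ≤ A → a ∈ F → p ^ k ≤ Nat.card F → ¬ p ∣ Nat.card Y →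
      A ≤ normalizer (Y : Set G) →
      A ≤ normalizer ((Cfsg.signalizerDelta p F ⊓ centralizer (F : Set G) : Subgroup G) : Set G) ∧
      (Cfsg.signalizerDelta p F ⊓ centralizer (F : Set G)) ⊓ Y ≤ ⨆ E : 𝓔, Y ⊓ T E := by
    intro F Y hFA haF hF hY hAY
    have hAN := normalizer_inf_centralizer hA (normalizer_delta hA hFA) (s := (F : Set G)) hFA
    refine ⟨hAN, fun y hy => ?_⟩
    set Z := (Cfsg.signalizerDelta p F ⊓ centralizer (F : Set G)) ⊓ Y with hZ
    have hAZ : A ≤ normalizer (Z : Set G) := inv_iff.1 fun c hc z hz =>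
      ⟨inv_iff.2 hAN c hc z hz.1, inv_iff.2 hAY c hc z hz.2⟩
    have hgen := le_iSup_centralizer_index A Z hA
      (fun h => hY (h.trans (card_dvd_of_le inf_le_right))) hAZ F hFA ⟨hy, hy.1.2⟩
    refine (iSup_le fun E => ?_ : (⨆ E : {B : Subgroup G // B ≤ A ∧ B.relIndex A ≤ p},
      Z ⊓ centralizer ((E : Subgroup G) : Set G)) ≤ _) hgen
    have hEF : (E : Subgroup G) ⊔ F ∈ 𝓔 := ⟨sup_le E.2.1 hFA, le_sup_right (a := (E : Subgroup G)) haF,
      (Nat.le_of_dvd (Nat.pos_of_ne_zero FiniteIndex.index_ne_zero)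
        (relIndex_dvd_of_le_left _ le_sup_left)).trans E.2.2⟩
    refine le_iSup_of_le ⟨_, hEF⟩ ?_
    rintro z ⟨hz, hzE⟩
    have hzc : z ∈ centralizer (((E : Subgroup G) ⊔ F : Subgroup G) : Set G) := by
      have h : (E : Subgroup G) ⊔ F ≤ centralizer ((zpowers z : Subgroup G) : Set G) :=
        sup_le (le_centralizer_iff.1 (zpowers_le.2 hzE)) (le_centralizer_iff.1 (zpowers_le.2 hz.1.2))
      exact le_centralizer_iff.1 h (mem_zpowers z)
    exact ⟨hz.2, hdelta hFA hF hEF.1 ⟨hz.1.1, hzc⟩, hzc⟩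
  have hpair : ∀ E ∈ 𝓔, ∀ E' ∈ 𝓔, ∃ N : Subgroup G, T E ≤ N ∧ T E' ≤ N ∧
      ∀ Y : Subgroup G, ¬ p ∣ Nat.card Y → A ≤ normalizer (Y : Set G) →
        A ≤ normalizer (N : Set G) ∧ N ⊓ Y ≤ ⨆ F : 𝓔, Y ⊓ T F := by
    intro E hE E' hE'
    have hF : p ^ k ≤ Nat.card ↥(E ⊓ E') := by
      have h1 := relIndex_mul_relIndex (E ⊓ E') E A inf_le_left hE.1
      have h2 : (E ⊓ E').relIndex E ≤ p := by
        rw [inf_relIndex_left]
        refine le_trans (Nat.le_of_dvd (Nat.pos_of_ne_zero FiniteIndex.index_ne_zero) ?_) hE'.2.2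
        haveI : IsMulCommutative A := hA.1
        rw [← relIndex_subgroupOf hE.1]
        exact relIndex_dvd_index_of_normal _ _
      have h3 := relIndex_mul_relIndex ⊥ (E ⊓ E') A bot_le (inf_le_left.trans hE.1)
      rw [relIndex_bot_left, relIndex_bot_left] at h3
      have h4 : (E ⊓ E').relIndex A ≤ p * p := h1 ▸ Nat.mul_le_mul h2 hE.2.2
      refine Nat.le_of_mul_le_mul_right ?_ (Nat.mul_pos hp.out.pos hp.out.pos)
      calc p ^ k * (p * p) = p ^ (k + 2) := by ring
        _ ≤ Nat.card A := hAk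
        _ = _ := h3.symm
        _ ≤ _ := Nat.mul_le_mul_left _ h4
    have hle : ∀ {E : Subgroup G} {F : Subgroup G}, F ≤ E →
        T E ≤ Cfsg.signalizerDelta p F ⊓ centralizer (F : Set G) := fun {E F} hFE y hy => by
      exact ⟨delta_antitone hFE hy.1, centralizer_le hFE hy.2⟩
    exact ⟨_, hle inf_le_left, hle inf_le_right, fun Y hY hAY =>
      hgenT _ Y (inf_le_left.trans hE.1) ⟨hE.2.1, hE'.2.1⟩ hF hY hAY⟩
  have hsolvθ : Group.IsSolvable (θ a) := by
    haveI := hsolv a ha ha1
    exact Group.isSolvable_of_isSolvable_injective (f := inclusion (hθcore a ha ha1)) (inclusion_injective _)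
  have hgenθ : θ a ≤ ⨆ E : 𝓔, θ a ⊓ T E := by
    refine iSup_le fun D y hy => ?_
    set Z := Cfsg.signalizerDelta p (D : Subgroup G) ⊓ centralizer {a} with hZdef
    have hZθ : Z ≤ θ a := le_iSup_of_le D le_rfl
    have hAZ : A ≤ normalizer (Z : Set G) :=
      normalizer_inf_centralizer hA (normalizer_delta hA D.2.1) (by simpa using ha)
    have hza : y ∈ centralizer ((zpowers a : Subgroup G) : Set G) := by
      refine (le_centralizer_iff.1 (zpowers_le.2 ?_ : zpowers a ≤ centralizer ((zpowers y : Subgroup G) : Set G))) (mem_zpowers y)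
      rintro _ ⟨n, rfl⟩
      exact ((show Commute y a from mem_centralizer_singleton_iff.1 hy.2).zpow_left n).eq
    have hgen := le_iSup_centralizer_index A Z hA
      (fun h => hθp a ha ha1 (h.trans (card_dvd_of_le hZθ))) hAZ (zpowers a) (zpowers_le.2 ha)
      ⟨hy, hza⟩
    refine (iSup_le fun E => ?_ : (⨆ E : {B : Subgroup G // B ≤ A ∧ B.relIndex A ≤ p},
      Z ⊓ centralizer ((E : Subgroup G) : Set G)) ≤ _) hgen
    have hEF : (E : Subgroup G) ⊔ zpowers a ∈ 𝓔 := ⟨sup_le E.2.1 (zpowers_le.2 ha),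
      le_sup_right (a := (E : Subgroup G)) (mem_zpowers a),
      (Nat.le_of_dvd (Nat.pos_of_ne_zero FiniteIndex.index_ne_zero)
        (relIndex_dvd_of_le_left _ le_sup_left)).trans E.2.2⟩
    refine le_iSup_of_le ⟨_, hEF⟩ ?_
    rintro z ⟨hz, hzE⟩
    have hzc : z ∈ centralizer (((E : Subgroup G) ⊔ zpowers a : Subgroup G) : Set G) := by
      refine (le_centralizer_iff.1 (sup_le (le_centralizer_iff.1 (zpowers_le.2 hzE)) (zpowers_le.2 ?_) :
        (E : Subgroup G) ⊔ zpowers a ≤ centralizer ((zpowers z : Subgroup G) : Set G))) (mem_zpowers z)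
      rintro _ ⟨n, rfl⟩
      exact ((show Commute z a from mem_centralizer_singleton_iff.1 hz.2).zpow_left n).eq
    exact ⟨hZθ hz, hdelta D.2.1 D.2.2.ge hEF.1 ⟨hz.1, hzc⟩, hzc⟩
  have hcontrol := control hA 𝓔 T (fun E hE => hE.1)
    (fun E hE => normalizer_inf_centralizer hA (normalizer_delta hA hE.1) hE.1) hpair
    (fun E hE E' hE' y hy => ⟨hdelta hE'.1 (hpow (hcard hE'.1 hE'.2.2)) hE.1 ⟨hy.1.1, hy.2⟩, hy.2⟩)
    (θ a) hsolvθ (hθp a ha ha1) (hθA a ha) hgenθ
  -- conclusion
  rintro y ⟨hy, hyb⟩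
  have hgen := le_iSup_centralizer_index A (θ a ⊓ centralizer {b}) hA
    (fun h => hθp a ha ha1 (h.trans (card_dvd_of_le inf_le_left)))
    (normalizer_inf_centralizer hA (hθA a ha) (by simpa using hb)) ⊥ bot_le
    ⟨⟨hy, hyb⟩, mem_centralizer_iff.2 fun c hc => by simp [mem_bot.1 hc]⟩
  refine (iSup_le fun E => ?_ : (⨆ E : {B : Subgroup G // B ≤ A ∧ B.relIndex A ≤ p},
    (θ a ⊓ centralizer {b}) ⊓ centralizer ((E : Subgroup G) : Set G)) ≤ _) hgen
  set E3 := (E : Subgroup G) ⊔ (zpowers a ⊔ zpowers b) with hE3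
  have hEF : E3 ∈ 𝓔 := ⟨sup_le E.2.1 (sup_le (zpowers_le.2 ha) (zpowers_le.2 hb)),
    le_sup_right (a := (E : Subgroup G)) (mem_sup_left (mem_zpowers a)),
    (Nat.le_of_dvd (Nat.pos_of_ne_zero FiniteIndex.index_ne_zero)
      (relIndex_dvd_of_le_left _ le_sup_left)).trans E.2.2⟩
  rintro z ⟨⟨hz, hzb⟩, hzE⟩
  have hzc : z ∈ centralizer (E3 : Set G) := by
    refine (le_centralizer_iff.1 (sup_le (le_centralizer_iff.1 (zpowers_le.2 hzE))
      (sup_le (zpowers_le.2 ?_) (zpowers_le.2 ?_)) :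
      E3 ≤ centralizer ((zpowers z : Subgroup G) : Set G))) (mem_zpowers z)
    · rintro _ ⟨n, rfl⟩
      exact ((show Commute z a from mem_centralizer_singleton_iff.1 (hθC a hz)).zpow_left n).eq
    · rintro _ ⟨n, rfl⟩
      exact ((show Commute z b from mem_centralizer_singleton_iff.1 hzb).zpow_left n).eq
  exact hTtheta hEF.1 (hpow (hcard hEF.1 hEF.2.2)) b
    (le_sup_right (a := (E : Subgroup G)) (mem_sup_right (mem_zpowers b)))
    (hcontrol E3 hEF ⟨hz, hzc⟩)

end Cfsg.Lib.Sig.KBal
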